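import Cfsg.Agent.Y5.Ca
import Cfsg.Agent.Y5.Cb
import Cfsg.Agent.Y5.Cc
import Cfsg.Agent.Y5.Cd
import Cfsg.Agent.Y5.Cp
import Cfsg.Agent.Y5.M1
import Cfsg.Agent.Y5.M2
import Cfsg.Agent.TC.F22A4
import Cfsg.Agent.TC.F22D5
import Cfsg.Agent.TC.F22E6
import Cfsg.Agent.TC.F22Y222

/-!
# The spider relation on `Y₅₃₂` forces the arm relation

Letters: `0 = b₂, 1 = a, 2 = b₁, 3 = c₁, 4 = b₃, 5 = c₂, 6 = c₃, 7 = d₁, 8 = e₁, 9 = f₁, 10 = d₂`.
-/

set_option autoImplicit false
set_option linter.unusedVariables false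
set_option linter.unusedSimpArgs false

namespace Cfsg.Agent.TC.Y5

open Cfsg.Agent.M24 Subgroup

theorem pbE6 : PB.{0} 6 (fun i => i) F22E6.base 51840 :=
  ((F22A4.cert.pb0.step (base := F22D5.base) F22D5.cert (by decide +kernel)).step
    (base := F22E6.base) F22E6.cert (by decide +kernel)).congr (by decide +kernel)

theorem pb1 : PB.{0} 8 (fun i => i) Y5a.base 9170703360 :=
  ((pbE6.step (base := F22Y222.base) F22Y222.cert (by decide +kernel)).step
    (base := Y5a.base) Y5a.cert (by decide +kernel)).congr (by decide +kernel)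

theorem pb2 : PB.{0} 9 (fun i => i) Y5d.base 94755225600 :=
  (((pbE6.step (base := Y5b.base) Y5b.cert (by decide +kernel)).step
    (base := Y5c.base) Y5c.cert (by decide +kernel)).step
    (base := Y5d.base) Y5d.cert (by decide +kernel)).congr (by decide +kernel)

/-- the edges -/
def eds : List (ℕ × ℕ) :=
  [(0, 1), (1, 2), (1, 4), (2, 3), (0, 5), (4, 6), (3, 7), (7, 8), (8, 9), (5, 10)]

/-- the labels -/
def lab (i j : ℕ) : ℕ := if i = j then 1 else if (i, j) ∈ eds ∨ (j, i) ∈ eds then 3 else 2

/-- the Coxeter relators -/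
def cox : List (List ℕ) :=
  (List.range 11).flatMap fun j => (List.range 11).map fun i => pww [i, j] (lab j i)

/-- the spider -/
def sp : List ℕ := pww [1, 0, 5, 1, 2, 3, 1, 4, 6] 10
/-- the mirror image of the spider -/
def sp' : List ℕ := pww [1, 2, 3, 1, 0, 5, 1, 4, 6] 10

/-- reflection in a highest root -/
def xw : List ℕ := [5, 0, 1, 2, 3, 7, 4, 1, 2, 3, 0, 1, 2, 5, 0, 1, 4, 1, 0, 5, 2, 1, 0, 3, 2, 1, 4, 7,
  3, 2, 1, 0, 5]
/-- reflection in the other highest root -/
def xw' : List ℕ := [6, 4, 1, 2, 3, 7, 0, 1, 2, 3, 4, 1, 2, 6, 4, 1, 0, 1, 4, 6, 2, 1, 4, 3, 2, 1, 0, 7,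
  3, 2, 1, 4, 6]
/-- the central element -/
def yw : List ℕ := pww [7, 5, 3, 4, 0, 2, 1] 9

/-- the substitution -/
def sb (i : ℕ) : List ℕ := if i = 10 then xw else if i = 11 then yw else [i]

/-- the substituted relators -/
def al : List (List ℕ) :=
  ((List.range 12).map (fun i => [i, i]) ++ Y5p.base).map fun w => w.flatMap sb

/-- relations of the first model -/
def ws1 : List (List ℕ) := sp' :: al.filter fun w => 6 < w.length && w.all fun i => i < 8

/-- letters of the second model -/
def mp (i : ℕ) : ℕ := [0, 1, 2, 3, 4, 5, 7, 10, 8].getD i 0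
/-- inverse -/
def mq (i : ℕ) : ℕ := [0, 1, 2, 3, 4, 5, 0, 6, 8].getD i 0

/-- relations of the second model -/
def ws2 : List (List ℕ) :=
  (al.filter fun w => 6 < w.length && w.contains 8 && !w.contains 9).map fun w => w.map mq

theorem chk1 : mdlChk 9 511 353 8 9170703360 Y5a.base ws1 m1 = true := by decide +kernel

theorem chk2 : mdlChk 7 127 122 9 94755225600 Y5d.base ws2 m2 = true := by decide +kernel

variable {D : Type} [Group D] {v : ℕ → D}

theorem evl_flat (s : ℕ → List ℕ) : ∀ w : List ℕ,
    evl (fun i => evl v (s i)) w = evl v (w.flatMap s)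
  | [] => rfl
  | i :: w => by rw [List.flatMap_cons, evl_append, evl, evl_flat s w]

theorem evl_mp (f : ℕ → ℕ) : ∀ w : List ℕ, evl (fun i => v (f i)) w = evl v (w.map f)
  | [] => rfl
  | i :: w => by rw [List.map_cons, evl, evl, evl_mp f w]

theorem comm_evl {a : D} : ∀ {w : List ℕ}, (∀ i ∈ w, Commute a (v i)) → Commute a (evl v w)
  | [], _ => Commute.one_right _
  | i :: w, h => (comm_evl fun j hj => h j (List.mem_cons_of_mem _ hj)).mul_right
      (h i List.mem_cons_self)

theorem comm_of {a b : D} (ha : a * a = 1) (hb : b * b = 1) (h : (a * b) ^ 2 = 1) : Commute a b := by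
  have e : a * b = (a * b)⁻¹ := eq_inv_of_mul_eq_one_left (by rw [← sq, h])
  rw [mul_inv_rev, inv_eq_of_mul_eq_one_left ha, inv_eq_of_mul_eq_one_left hb] at e
  exact e

section
variable (hc : ∀ i < 11, ∀ j < 11, (v i * v j) ^ lab i j = 1)
include hc

theorem sq1 {i : ℕ} (hi : i < 11) : v i * v i = 1 := by simpa [lab] using hc i hi i hi

theorem cm {i j : ℕ} (hi : i < 11) (hj : j < 11) (h : lab i j = 2) : Commute (v i) (v j) :=
  comm_of (sq1 hc hi) (sq1 hc hj) (h ▸ hc i hi j hj)

theorem cox_ok' : ∀ l ∈ cox, evl v l = 1 := by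
  intro l hl
  simp only [cox, List.mem_flatMap, List.mem_range, List.mem_map] at hl
  obtain ⟨j, hj, i, hi, rfl⟩ := hl
  simpa [evl_pww, evl] using hc j hj i hi

theorem step1 (hs : evl v sp = 1) : ∀ l ∈ ws1, evl v l = 1 := fun l hl =>
  (mdl_sound (by norm_num) (by norm_num) pb1 chk1 ⟨fun i hi => sq1 hc (by omega), fun l hl =>
    ⟨ltAll_sound (show ltAll 8 Y5a.base = true by decide +kernel) l hl, by
      rcases List.mem_cons.1 (subAll_sound (show subAll Y5a.base (sp :: cox) = true by
        decide +kernel) l hl) with rfl | h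
      exacts [hs, cox_ok' hc l h]⟩⟩ l hl).2

theorem step2 (hs : evl v sp = 1) : ∀ l ∈ ws2, evl v (l.map mp) = 1 := fun l hl => by
  have hm : ∀ i < 9, mp i < 11 := by decide
  rw [← evl_mp]
  refine (mdl_sound (by norm_num) (by norm_num) pb2 chk2 ⟨fun i hi => sq1 hc (hm i hi), fun l hl =>
    ⟨ltAll_sound (show ltAll 9 Y5d.base = true by decide +kernel) l hl, ?_⟩⟩ l hl).2
  rw [evl_mp]
  rcases List.mem_cons.1 (subAll_sound (show subAll (Y5d.base.map fun w => w.map mp)
    ((xw ++ [10] ++ (xw ++ [10])) :: cox) = true by decide +kernel) _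
    (List.mem_map_of_mem hl)) with e | h
  · have h1 := step1 hc hs (xw ++ xw') (by decide +kernel)
    have h2 := step1 hc hs (xw ++ xw) (by decide +kernel)
    have h3 : Commute (v 10) (evl v xw') := comm_evl fun i hi =>
      cm hc (by norm_num) (by revert i; decide) (by revert i; decide)
    rw [evl_append] at h1 h2
    rw [eq_inv_of_mul_eq_one_left h1, Commute.inv_right_iff] at h3
    rw [e, evl_append, evl_append]
    simp only [evl, one_mul]
    rw [mul_assoc, ← mul_assoc (evl v xw), ← h3.eq, mul_assoc, h2, mul_one, sq1 hc (by norm_num)]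
  · exact cox_ok' hc _ h

theorem arm (hs : evl v sp = 1) : v 9 = evl v yw := by
  have c9 : ∀ i < 8, Commute (v 9) (v i) := fun i hi =>
    cm hc (by norm_num) (by omega) (by revert i; decide)
  have cx : Commute (v 9) (evl v xw) := comm_evl fun i hi => c9 i (by revert i; decide)
  have cy : Commute (v 9) (evl v yw) := comm_evl fun i hi => c9 i (by revert i; decide +kernel)
  have sx := step1 hc hs (xw ++ xw) (by decide +kernel)
  have sy := step1 hc hs (yw ++ yw) (by decide +kernel)
  have s9 := sq1 hc (show 9 < 11 by norm_num)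
  have s8 := sq1 hc (show 8 < 11 by norm_num)
  rw [evl_append] at sx sy
  have hal : ∀ l ∈ al, evl v l = 1 := fun l hl => by
    have := subAll_sound (show subAll al (([9] ++ xw ++ ([9] ++ xw)) :: ([9] ++ yw ++ ([9] ++ yw)) ::
      (cox ++ ws1 ++ ws2.map fun w => w.map mp)) = true by decide +kernel) l hl
    simp only [List.mem_cons, List.mem_append, List.mem_map] at this
    rcases this with rfl | rfl | (h | h) | ⟨w, h, rfl⟩
    · simp only [evl_append, evl, one_mul]
      rw [mul_assoc, ← mul_assoc (v 9), cx.eq, mul_assoc, s9, mul_one, sx]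
    · simp only [evl_append, evl, one_mul]
      rw [mul_assoc, ← mul_assoc (v 9), cy.eq, mul_assoc, s9, mul_one, sy]
    · exact cox_ok' hc l h
    · exact step1 hc hs l h
    · exact step2 hc hs w h
  have hal' : ∀ l ∈ (List.range 12).map (fun i => [i, i]) ++ Y5p.base,
      evl (fun i => evl v (sb i)) l = 1 := fun l hl => by
    rw [evl_flat]; exact hal _ (List.mem_map_of_mem hl)
  have key := Y5p.cert.mem (fun i => evl v (sb i)) (centralizer {v 9})
    (fun i hi => ⟨hi, by simpa [evl, Y5p.iv] using hal' [i, i] (by simp [hi])⟩)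
    (fun l hl => ⟨ltAll_sound (show ltAll 12 Y5p.base = true by decide +kernel) l hl,
      hal' l (List.mem_append_right _ hl)⟩) (fun i hi h => by
      rw [mem_centralizer_singleton_iff]
      refine Commute.eq (Commute.symm ?_)
      by_cases h1 : i < 8
      · rw [sb, if_neg (by omega), if_neg (by omega)]; simpa [evl] using c9 i h1
      · interval_cases i
        · exact absurd h (by decide)
        · simp [sb, evl]
        · exact cx
        · exact cy)
  have h3 := hal' (pww [8, 11] 3) (List.mem_append_right _ (by decide +kernel))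
  have h4 := hc 9 (by norm_num) 8 (by norm_num)
  rw [mem_centralizer_singleton_iff] at key
  rw [evl_pww] at h3
  simp only [evl, sb, one_mul] at key h3
  norm_num at key h3
  change _ ^ 3 = 1 at h4
  simp only [evl, one_mul] at key h3
  generalize evl v yw = y at *
  generalize v 9 = f at *
  generalize v 8 = e at *
  have ie : e⁻¹ = e := inv_eq_of_mul_eq_one_left s8
  have if' : f⁻¹ = f := inv_eq_of_mul_eq_one_left s9
  have iy : y⁻¹ = y := inv_eq_of_mul_eq_one_left sy
  have a1 : f * e * f = e * f * e := by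
    have : f * e * f * (e * f * e) = 1 := by rw [← h4]; simp [pow_succ, mul_assoc]
    rw [eq_inv_of_mul_eq_one_left this]; simp [ie, if', mul_assoc]
  have a2 : y * e * y = e * y * e := by
    have : y * e * y * (e * y * e) = 1 := by rw [← h3]; simp [pow_succ, mul_assoc]
    rw [eq_inv_of_mul_eq_one_left this]; simp [ie, iy, mul_assoc]
  refine mul_left_cancel (a := e * f * y * e) ?_
  calc e * f * y * e * f = (f * e * f) * y * e := by rw [key]; simp only [mul_assoc]
    _ = e * f * (e * y * e) := by rw [a1]; simp only [mul_assoc]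
    _ = e * f * y * e * y := by rw [← a2]; simp only [mul_assoc]

theorem mirror (hs : evl v sp = 1) : evl v sp' = 1 := step1 hc hs _ List.mem_cons_self

end

end Cfsg.Agent.TC.Y5
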