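import Cfsg.Agent.Y5.Main
import Cfsg.Prelude.Def_Spor_M

/-! # The spider relation on `Y₅₅₅` forces the six arm relations -/

set_option autoImplicit false

namespace Cfsg.Agent.TC.Y5

open Cfsg.Spor Cfsg.Spor.Bimonster

variable {D : Type} [Group D] {u : Gen → D}

/-- product form of the general lemma -/
theorem arm' (hu : ∀ x y, (u x * u y) ^ coxLabel edges x y = 1) (en : ℕ → Gen)
    (h : ∀ i < 11, ∀ j < 11, coxLabel edges (en i) (en j) = lab i j)
    (hs : (u (en 1) * u (en 0) * u (en 5) * u (en 1) * u (en 2) * u (en 3) * u (en 1) * u (en 4) *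
      u (en 6)) ^ 10 = 1) :
    u (en 9) = (u (en 1) * u (en 2) * u (en 0) * u (en 4) * u (en 3) * u (en 5) * u (en 7)) ^ 9 ∧
    (u (en 1) * u (en 2) * u (en 3) * u (en 1) * u (en 0) * u (en 5) * u (en 1) * u (en 4) *
      u (en 6)) ^ 10 = 1 := by
  have hc : ∀ i < 11, ∀ j < 11, (u (en i) * u (en j)) ^ lab i j = 1 := fun i hi j hj =>
    h i hi j hj ▸ hu _ _
  have iv : ∀ x, (u x)⁻¹ = u x := fun x =>
    inv_eq_of_mul_eq_one_left (by simpa [coxLabel] using hu x x)
  have hs' : evl (fun i => u (en i)) sp = 1 := by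
    rw [← inv_eq_one, ← inv_pow] at hs
    simpa [sp, evl_pww, evl, iv, mul_assoc] using hs
  refine ⟨by simpa [yw, evl_pww, evl] using arm hc hs', ?_⟩
  have := mirror hc hs'
  rw [← inv_eq_one, ← inv_pow]
  simpa [sp', evl_pww, evl, iv, mul_assoc] using this

theorem rot {p q r : D} (h : (p * q * r) ^ 10 = 1) : (q * r * p) ^ 10 = 1 := by
  rw [mul_assoc] at h; exact pow_swap h

theorem arms (hu : ∀ x y, (u x * u y) ^ coxLabel edges x y = 1)
    (hs : (u .a * u .b1 * u .c1 * u .a * u .b2 * u .c2 * u .a * u .b3 * u .c3) ^ 10 = 1) :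
    ∀ r ∈ extra, FreeGroup.lift u r = 1 := by
  have s1 : ((u .a * u .b1 * u .c1) * (u .a * u .b2 * u .c2) * (u .a * u .b3 * u .c3)) ^ 10 = 1 := by
    simpa only [mul_assoc] using hs
  have s2 := rot s1
  have s3 := rot s2
  have k213 := arm' hu (fun i => [Gen.b1, .a, .b2, .c2, .b3, .c1, .c3, .d2, .e2, .f2, .d1].getD i .a)
    (by decide) (by simp only [← mul_assoc] at s1 ⊢; exact s1)
  have k321 := arm' hu (fun i => [Gen.b2, .a, .b3, .c3, .b1, .c2, .c1, .d3, .e3, .f3, .d2].getD i .a)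
    (by decide) (by simp only [← mul_assoc] at s2 ⊢; exact s2)
  have k132 := arm' hu (fun i => [Gen.b3, .a, .b1, .c1, .b2, .c3, .c2, .d1, .e1, .f1, .d3].getD i .a)
    (by decide) (by simp only [← mul_assoc] at s3 ⊢; exact s3)
  have t1 : ((u .a * u .b2 * u .c2) * (u .a * u .b1 * u .c1) * (u .a * u .b3 * u .c3)) ^ 10 = 1 := by
    simp only [← mul_assoc]; exact k213.2
  have t2 := rot t1
  have t3 := rot t2
  have k123 := arm' hu (fun i => [Gen.b2, .a, .b1, .c1, .b3, .c2, .c3, .d1, .e1, .f1, .d2].getD i .a)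
    (by decide) (by simp only [← mul_assoc] at t1 ⊢; exact t1)
  have k312 := arm' hu (fun i => [Gen.b1, .a, .b3, .c3, .b2, .c1, .c2, .d3, .e3, .f3, .d1].getD i .a)
    (by decide) (by simp only [← mul_assoc] at t2 ⊢; exact t2)
  have k231 := arm' hu (fun i => [Gen.b3, .a, .b2, .c2, .b1, .c3, .c1, .d2, .e2, .f2, .d3].getD i .a)
    (by decide) (by simp only [← mul_assoc] at t3 ⊢; exact t3)
  intro r hr
  simp only [extra, List.mem_cons, List.not_mem_nil, or_false] at hr
  rcases hr with rfl | rfl | rfl | rfl | rfl | rfl | rfl <;>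
    simp only [map_mul, map_pow, map_inv, FreeGroup.lift_apply_of, mul_inv_eq_one]
  exacts [hs, k123.1, k132.1, k213.1, k231.1, k312.1, k321.1]

theorem arms' (hu : ∀ x y, (u x * u y) ^ coxLabel edges x y = 1)
    (hs : FreeGroup.lift u ((a * b1 * c1 * a * b2 * c2 * a * b3 * c3) ^ 10) = 1) :
    ∀ r ∈ extra, FreeGroup.lift u r = 1 :=
  arms hu (by simpa only [map_mul, map_pow, FreeGroup.lift_apply_of] using hs)

theorem main : ∀ r ∈ extra, FreeGroup.lift
    (cxo edges [(a * b1 * c1 * a * b2 * c2 * a * b3 * c3) ^ 10]) r = 1 :=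
  arms' (cox_rel fun x => by cases x <;> decide) (cox_extra List.mem_cons_self)

end Cfsg.Agent.TC.Y5
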