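import Cfsg.Agent.TC.Pres
import Cfsg.Agent.M24.Perm

/-!
# Partial coset enumeration, lower bounds for orders, transfer of relations from a model
-/

set_option autoImplicit false
set_option linter.unusedSimpArgs false

namespace Cfsg.Agent.TC

open Cfsg.Agent.M24 Subgroup MulAction

/-- check of the coincidence record of `c` -/
noncomputable def chkEP (row rel : ℕ → ℕ) (k M nr fuel c rw : ℕ) : Bool :=
  force (fl rw k) fun r => Nat.rec (motive := fun _ => Bool)
    true (fun b _ =>
    band (Nat.ble (Nat.succ b) c) (force (vl (fl rw (Nat.succ k))) fun p =>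
      band (Nat.ble (Nat.succ p) M) (force (thr r) fun th => relK rel nr r fun L W =>
        trcD row k th fuel (nfK row k th (fun x' _ => nfK row k th (fun p' _ =>
          bor (band (Nat.beq x' c) (Nat.beq p' b)) (band (Nat.beq x' b) (Nat.beq p' c))) fuel p) fuel)
          (Nat.sub L (nat_lit 1)) W p))) (vl r)

/-- check of a row of a partial table -/
noncomputable def chkRowP (row rel : ℕ → ℕ) (k M nr sub fuel c : ℕ) : Bool :=
  bor (Nat.ble M c) (force (row c) fun rw => band (chkEP row rel k M nr fuel c rw)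
    (nall k (chkT row rel k M nr sub fuel c rw)))

section sound

variable {D Ω : Type*} [Group D] [MulAction D Ω] {v : ℕ → D} {ω : ℕ → Ω} {row rel : ℕ → ℕ}
  {k M : ℕ}

theorem tc_okP {x0 : Ω} {ws : List (List ℕ)} {sub fuel : ℕ} (hM : M ≤ 131071)
    (hrel : relChk rel ws 2 = true) (h01 : Nat.land (rel 0) 255 = 0 ∧ Nat.land (rel 1) 255 = 0)
    (hws : ∀ l ∈ ws, (∀ i ∈ l, i < k) ∧ evl v l = 1)
    (hsub : ∀ i < k, sub.testBit i = true → v i • x0 = x0)
    (hrow : ∀ c, chkRowP row rel k M (2 + ws.length) sub fuel c = true) :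
    ∀ c < M, ∀ i ≤ k, Ok v (pts v x0 row k) row k M c i := by
  suffices key : ∀ n, ∀ c < M, ∀ i ≤ k, fl (row c) i < n → Ok v (pts v x0 row k) row k M c i from
    fun c hc i hi => key _ c hc i hi (Nat.lt_succ_self _)
  intro n
  induction n with
  | zero => intro _ _ _ _ h; omega
  | succ n ih =>
    intro c hc i hi hn y e
    have H : ∀ c' < M, ∀ i' ≤ k, fl (row c') i' < thr (fl (row c) i) →
        Ok v (pts v x0 row k) row k M c' i' := fun c' a i' b d =>
      ih c' a i' b (by have := thr_le (fl (row c) i); omega)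
    have h := hrow c
    unfold chkRowP at h
    simp only [force_eq, bor_eq, band_eq, Bool.or_eq_true, Bool.and_eq_true, Nat.ble_eq,
      nall_iff] at h
    obtain ⟨hE, hT⟩ := h.resolve_left (by omega)
    rcases Nat.eq_or_lt_of_le hi with rfl | hi'
    · rw [if_neg (lt_irrefl _)]
      unfold chkEP at hE
      simp only [force_eq] at hE
      rw [e] at hE
      change band _ _ = true at hE
      simp only [force_eq, band_eq, Bool.and_eq_true, Nat.ble_eq] at hE
      obtain ⟨a1, a2, a3⟩ := hE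
      refine ⟨by omega, ?_⟩
      obtain ⟨L, W, b1, b2, b3, b4⟩ := relK_sound hrel hws (Or.inr h01) a3
      obtain ⟨L, rfl⟩ : ∃ L', L = L' + 1 := ⟨L - 1, by omega⟩
      obtain ⟨x, c1, c2, c3⟩ := trcD_sound H a2 b2 b4
      obtain ⟨x', d1, d2, d3⟩ := nfK_sound H fuel c1 c3
      obtain ⟨p', e1, e2, e3⟩ := nfK_sound H fuel a2 d3
      rw [b3, one_smul] at c2
      simp only [bor_eq, band_eq, Bool.or_eq_true, Bool.and_eq_true, Nat.beq_eq] at e3
      rcases e3 with ⟨rfl, rfl⟩ | ⟨rfl, rfl⟩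
      · rw [d2, e2, c2]
      · rw [d2, e2, c2]
    · rw [if_pos hi']
      have hT := hT i hi'
      unfold chkT at hT
      simp only [force_eq] at hT
      rw [e] at hT
      change band _ _ = true at hT
      simp only [force_eq, band_eq, Bool.and_eq_true, Nat.ble_eq, bif'_eq] at hT
      obtain ⟨a1, a2⟩ := hT
      refine ⟨a1, ?_⟩
      split_ifs at a2 with r2 r0
      · obtain ⟨L, W, -, b2, b3, b4⟩ := relK_sound hrel hws (Or.inl r2) a2
        simp only [Bool.and_eq_true, Nat.ble_eq, Nat.beq_eq] at b4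
        obtain ⟨⟨b5, b6⟩, b7⟩ := b4
        obtain ⟨L, rfl⟩ : ∃ L', L = L' + 2 := ⟨L - 2, by
          have : 2 ≤ L := b5
          omega⟩
        rw [ltrs_succ] at b2 b3
        obtain ⟨x, c1, c2, c3⟩ := trcD_sound (n := L) H a1
          (fun j hj => b2 j (List.mem_cons_of_mem _ hj)) b7
        obtain ⟨x', d1, d2, d3⟩ := nfK_sound H fuel c1 c3
        obtain ⟨c', e1, e2, e3⟩ := nfK_sound H fuel hc d3
        have e4 : x' = c' := Nat.eq_of_beq_eq_true e3
        have b6' : Nat.land W 31 = i := b6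
        rw [evl, b6'] at b3
        have b8 : v i * evl v (ltrs (L + 1) (W >>> 5)) = 1 := mul_eq_one_comm.1 b3
        rw [← e2, ← e4, d2, ← c2, ← mul_smul]
        exact (congrArg (· • _) b8).trans (one_smul _ _)
      · simp only [Bool.and_eq_true, Nat.ble_eq, Nat.beq_eq] at a2
        obtain ⟨b1, b2⟩ := a2
        have b2' : fl (row y) (k + 1) >>> 17 = c + i <<< 17 := b2
        have b1' : c < y := b1
        have e1 : vl (fl (row y) (k + 1) >>> 17) = c := by
          rw [b2', Nat.shiftLeft_eq]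
          show (c + i * 2 ^ 17) &&& (2 ^ 17 - 1) = c
          rw [Nat.and_two_pow_sub_one_eq_mod]; omega
        have e2 : fl (row y) (k + 1) >>> 34 = i := by
          rw [show 34 = 17 + 17 from rfl, Nat.shiftRight_add, b2', Nat.shiftLeft_eq,
            Nat.shiftRight_eq_div_pow]
          omega
        conv_rhs => rw [pts]
        rw [dif_pos (by rw [e1]; exact b1'), e1, e2]
      · simp only [Bool.and_eq_true, Nat.beq_eq] at a2
        obtain ⟨⟨b1, b2⟩, b3⟩ := a2
        have b1' : c = 0 := b1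
        have b2' : y = 0 := b2
        have b3' : (sub >>> i) &&& 1 = 1 := b3
        subst b1' b2'
        have e0 : pts v x0 row k 0 = x0 := by rw [pts, dif_neg (Nat.not_lt_zero _)]
        rw [e0]
        refine hsub i hi' ?_
        rw [Nat.testBit, Nat.and_comm, b3']; rfl

end sound

/-- the trace of a word returns to the first coset -/
noncomputable def trChk (row : ℕ → ℕ) (k fuel n W : ℕ) : Bool :=
  trc row k (nat_lit 72057594037927936) fuel
    (nfK row k (nat_lit 72057594037927936) (fun y _ => Nat.beq y (nat_lit 0)) fuel) n W (nat_lit 0)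

/-- A checked partial enumeration: the word `w` lies in the subgroup. -/
structure PCert (k : ℕ) (iv : ℕ → ℕ) (base : List (List ℕ)) (sub : ℕ) (w : List ℕ) : Prop where
  out : ∃ (row rel : ℕ → ℕ) (M fuel W : ℕ), 0 < M ∧ M ≤ 131071 ∧
    relChk rel (allW iv k base) 2 = true ∧ (Nat.land (rel 0) 255 = 0 ∧ Nat.land (rel 1) 255 = 0) ∧
    (∀ c, chkRowP row rel k M (2 + (allW iv k base).length) sub fuel c = true) ∧
    ltrs w.length W = w ∧ (∀ i ∈ w, i < k) ∧ trChk row k fuel w.length W = true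

theorem PCert.mem {k : ℕ} {iv : ℕ → ℕ} {base : List (List ℕ)} {sub : ℕ} {w : List ℕ}
    (h : PCert k iv base sub w) {D : Type*} [Group D] (v : ℕ → D) (S : Subgroup D)
    (hinv : ∀ i < k, iv i < k ∧ v (iv i) * v i = 1)
    (hb : ∀ l ∈ base, (∀ i ∈ l, i < k) ∧ evl v l = 1)
    (hsub : ∀ i < k, sub.testBit i = true → v i ∈ S) : evl v w ∈ S := by
  obtain ⟨row, rel, M, fuel, W, hM0, hM, hrel, h01, hrow, hw, hl, ht⟩ := h.out
  have ok := tc_okP (x0 := ((1 : D) : D ⧸ S)) hM hrel h01 (allW_ok hinv hb) (fun i hi hs => by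
    show ((v i * 1 : D) : D ⧸ S) = ((1 : D) : D ⧸ S)
    rw [QuotientGroup.eq]
    simpa using hsub i hi hs) hrow
  obtain ⟨y, a1, a2, a3⟩ := trc_sound (fun c hc i hi _ => ok c hc i hi) w.length hM0
    (by rw [hw]; exact hl) ht
  obtain ⟨y', b1, b2, b3⟩ := nfK_sound (fun c hc i hi _ => ok c hc i hi) fuel a1 a3
  have e : y' = 0 := Nat.eq_of_beq_eq_true b3
  have e0 : pts v ((1 : D) : D ⧸ S) row k 0 = ((1 : D) : D ⧸ S) := by
    rw [pts, dif_neg (Nat.not_lt_zero _)]
  rw [hw, ← b2, e] at a2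
  change _ • pts v _ row k 0 = _ at a2
  rw [e0] at a2
  have : ((evl v w * 1 : D) : D ⧸ S) = ((1 : D) : D ⧸ S) := a2
  rw [QuotientGroup.eq] at this
  simpa using this

theorem chkRowP_of_le {row rel : ℕ → ℕ} {k M nr sub fuel : ℕ} (c : ℕ) (h : M ≤ c) :
    chkRowP row rel k M nr sub fuel c = true := by
  simp [chkRowP, h]

/-! ### lower bounds -/

/-- check of one level: an orbit tree and words for elements of the stabiliser -/
noncomputable def lbLvl (mul : ℕ → ℕ → ℕ) (inv : ℕ → ℕ) (one : ℕ) (ap : ℕ → ℕ → ℕ) (hi : ℕ)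
    (L : Lvl) (Ls : List Lvl) : Bool :=
  band (band (L.t.srt (nat_lit 0) hi) (connChk ap L.gens L.b L.t))
    (band (wordsChk mul inv one L.gens (gensOf Ls) (wsOf Ls))
      (lall (gensOf Ls) fun s => Nat.beq (ap s L.b) L.b))

/-- check of a chain -/
noncomputable def lbChk (mul : ℕ → ℕ → ℕ) (inv : ℕ → ℕ) (one : ℕ) (ap : ℕ → ℕ → ℕ) (hi : ℕ)
    (Ls : List Lvl) : Bool :=
  List.rec (motive := fun _ => Bool) true (fun L Ls ih => band (lbLvl mul inv one ap hi L Ls) ih) Ls

theorem lb_sound {G X : Type*} [Group G] [Finite G] [MulAction G X] {code : G → ℕ}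
    {mul : ℕ → ℕ → ℕ} {inv : ℕ → ℕ} {one : ℕ} {D : Set X} {idx : X → ℕ} {ap : ℕ → ℕ → ℕ} {hi : ℕ}
    (C : GC code mul inv one) (A : AC code D idx ap) : ∀ {Ls : List Lvl},
    (∀ L ∈ Ls, ∃ x ∈ D, idx x = L.b) → lbChk mul inv one ap hi Ls = true → Valid code (gensOf Ls) →
    chainSize Ls ≤ Nat.card (gen code (gensOf Ls))
  | [], _, _, _ => Nat.card_pos
  | L :: Ls, hb, h, hv => by
    have h' : band (lbLvl mul inv one ap hi L Ls) (lbChk mul inv one ap hi Ls) = true := h
    simp only [lbLvl, band_eq, Bool.and_eq_true, lall_iff] at h'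
    obtain ⟨⟨⟨h1, h2⟩, h3, h4⟩, h5⟩ := h'
    have hv' : Valid code L.gens := hv
    obtain ⟨a, b⟩ := C.words_sound hv' h3
    have ih := lb_sound C A (fun L' hL => hb L' (List.mem_cons_of_mem _ hL)) h5 a
    obtain ⟨x, hx, e⟩ := hb L List.mem_cons_self
    rw [← e] at h2 h4
    have hc := A.conn_sound hv' hx h2
    show L.t.size * chainSize Ls ≤ Nat.card (gen code L.gens)
    set K := gen code L.gens
    have e1 := (stabilizer K x).index_mul_card
    rw [index_stabilizer] at e1
    have hfin : (orbit K x).Finite := Set.finite_range _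
    have l1 : L.t.size ≤ (orbit K x).ncard := by
      rw [T.size_eq, ← A.ncard_keys (T.srt_nodup h1) fun k hk => by
        obtain ⟨g, -, e⟩ := hc k hk
        exact ⟨_, A.smul_mem g hx, e⟩]
      refine Set.ncard_le_ncard ?_ hfin
      rintro y ⟨hy, hk⟩
      obtain ⟨g, hg, e⟩ := hc _ hk
      exact ⟨⟨g, hg⟩, A.inj (A.smul_mem g hx) hy e⟩
    have hfix : gen code (gensOf Ls) ≤ stabilizer G x := gen_le fun g hg => by
      have := Nat.eq_of_beq_eq_true (h4 _ hg)
      rw [A.ap_code g hx] at this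
      exact A.inj (A.smul_mem g hx) hx this
    have l2 : Nat.card (gen code (gensOf Ls)) ≤ Nat.card (stabilizer K x) :=
      Nat.card_le_card_of_injective (fun g => ⟨⟨g.1, b g.2⟩, hfix g.2⟩)
        fun g g' e => Subtype.ext (congrArg (fun y : stabilizer K x => (y.1 : G)) e)
    rw [← e1]
    exact Nat.mul_le_mul l1 (ih.trans l2)

/-! ### transfer of relations -/

theorem transfer {k N : ℕ} {base : List (List ℕ)} (hP : PB.{0} k (fun i => i) base N)
    {M : Type} [Group M] {m : ℕ → M} (hm : Sat k base m)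
    (hc : N ≤ Nat.card (closure (m '' {i | i < k}))) {D : Type} [Group D] {v : ℕ → D}
    (hv : Sat k base v) {w : List ℕ} (hw : ∀ i ∈ w, i < k) (h : evl m w = 1) : evl v w = 1 := by
  let u : ℕ → D × M := fun i => (v i, m i)
  have e1 : ∀ l, (evl u l).1 = evl v l := fun l => evl_map (MonoidHom.fst D M) u l
  have e2 : ∀ l, (evl u l).2 = evl m l := fun l => evl_map (MonoidHom.snd D M) u l
  obtain ⟨a, b⟩ := hP (D × M) u (fun i hi => ⟨hi, Prod.ext (hv.1 i hi) (hm.1 i hi)⟩)
    fun l hl => ⟨(hv.2 l hl).1, Prod.ext ((e1 l).trans (hv.2 l hl).2) ((e2 l).trans (hm.2 l hl).2)⟩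
  set P := closure (u '' {i | i < k})
  have hmap : P.map (MonoidHom.snd D M) = closure (m '' {i | i < k}) := by
    rw [MonoidHom.map_closure, Set.image_image]; rfl
  let f : P → P.map (MonoidHom.snd D M) := fun x => ⟨x.1.2, mem_map_of_mem _ x.2⟩
  have hs : Function.Surjective f := by
    rintro ⟨_, x, hx, rfl⟩; exact ⟨⟨x, hx⟩, rfl⟩
  have hi : Function.Injective f :=
    ((Nat.bijective_iff_surjective_and_card f).2 ⟨hs, le_antisymm (by rw [hmap]; exact b.trans hc)
      (Nat.card_le_card_of_surjective f hs)⟩).1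
  have hmem : evl u w ∈ P := evl_mem fun i hi => subset_closure ⟨i, hw i hi, rfl⟩
  have := hi (a₁ := ⟨_, hmem⟩) (a₂ := 1) (Subtype.ext ((e2 w).trans h))
  have e3 : evl u w = 1 := congrArg Subtype.val this
  rw [← e1, e3]; rfl

/-- check of a permutation model: involutions, relators, further relations, order -/
noncomputable def mdlChk (w mk n k N : ℕ) (base ws : List (List ℕ)) (Ls : List Lvl) : Bool :=
  band (band (band (lall (gensOf Ls) (isPermG w mk n)) (Ls.all fun L => decide (L.b < n)))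
    (band (Nat.beq (gensOf Ls).length k) (Nat.ble N (chainSize Ls))))
    (force (oneG w n) fun e => band (lbChk (mulG w mk n) (invG w mk n) e (apw w mk) n Ls)
      (relsOk (mulG w mk n) e (lget (gensOf Ls) e) k
        ((List.range k).map (fun i => [i, i]) ++ base ++ ws)))

theorem mdl_sound {w mk n k N : ℕ} [NeZero n] (hmk : mk = 2 ^ w - 1) (hn : n ≤ 2 ^ w)
    {base ws : List (List ℕ)} {Ls : List Lvl} (hP : PB.{0} k (fun i => i) base N)
    (h : mdlChk w mk n k N base ws Ls = true) {D : Type} [Group D] {v : ℕ → D} (hv : Sat k base v) :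
    ∀ l ∈ ws, (∀ i ∈ l, i < k) ∧ evl v l = 1 := by
  simp only [mdlChk, band_eq, Bool.and_eq_true, force_eq, List.all_eq_true, decide_eq_true_iff,
    Nat.beq_eq, Nat.ble_eq] at h
  obtain ⟨⟨⟨h1, h2⟩, h3, h4⟩, h5, h6⟩ := h
  have hval := (finEnc n).valid_of_isPerm h1
  have C := (finEnc n).gc hmk hn
  have hc := lb_sound C ((finEnc n).ac hmk hn)
    (fun L hL => ⟨(finEnc n).pt L.b, trivial, (finEnc n).idx_pt _ (h2 L hL)⟩) h5 hval
  have hex : ∀ i, ∃ g : Equiv.Perm (Fin n), (finEnc n).code w g = lget (gensOf Ls) (oneG w n) i :=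
    fun i => let ⟨g, _, e⟩ := C.lget_mem hval i; ⟨g, e⟩
  choose m hm using hex
  have hr := relsOk_sound C (u := m) (fun i _ => hm i) h6
  have hS : Sat k base m := ⟨fun i hi => by
      simpa [evl] using (hr [i, i] (by simp [hi])).2,
    fun l hl => hr l (by simp [hl])⟩
  have hle : gen ((finEnc n).code w) (gensOf Ls) ≤ closure (m '' {i | i < k}) := gen_le fun g hg => by
    obtain ⟨i, hi, e⟩ := List.getElem_of_mem hg
    refine subset_closure ⟨i, h3 ▸ hi, C.inj ?_⟩
    rw [hm, lget_eq_getD, ← e, List.getD_eq_getElem _ _ hi]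
  intro l hl
  have := hr l (by simp [hl])
  exact ⟨this.1, transfer hP hS (h4.trans (hc.trans (card_le_of_le hle))) hv this.1 this.2⟩

end Cfsg.Agent.TC
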